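import Cfsg.Agent.Helper28.U6R2.Rows0
import Cfsg.Agent.Helper28.U6R2.Fin0
import Cfsg.Agent.Helper28.U6R2.Rel0

set_option autoImplicit false

namespace Cfsg.Agent.Helper28.U6R2

theorem rows_all : ∀ x, x < 720 → Cfsg.Agent.Helper28.rowChk D x = true :=
  Cfsg.Agent.Helper28.pts_of_chunks _ 720 512 2 (by decide) (by decide)
    (Cfsg.Agent.Helper28.allLt_succ _ 1 (Cfsg.Agent.Helper28.allLt_succ _ 0 (Cfsg.Agent.Helper28.allLt_zero _) rows_0) rows_1)

theorem fin_all : ∀ i, i < 720 → Cfsg.Agent.Helper28.finPt D 720 lv T ftp ftc i = true :=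
  Cfsg.Agent.Helper28.pts_of_chunks _ 720 1024 1 (by decide) (by decide)
    (Cfsg.Agent.Helper28.allLt_succ _ 0 (Cfsg.Agent.Helper28.allLt_zero _) fin_0)

theorem rel_all : ∀ i, i < 720 → Cfsg.Agent.Helper28.relPt T relL i = true :=
  Cfsg.Agent.Helper28.pts_of_chunks _ 720 256 3 (by decide) (by decide)
    (Cfsg.Agent.Helper28.allLt_succ _ 2 (Cfsg.Agent.Helper28.allLt_succ _ 1 (Cfsg.Agent.Helper28.allLt_succ _ 0 (Cfsg.Agent.Helper28.allLt_zero _) rel_0) rel_1) rel_2)

theorem wE_all : List.Forall₂ (Cfsg.Agent.Helper28.WordOf gen) Cfsg.Agent.Helper28.U6.R2.extra extraL := by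
  unfold Cfsg.Agent.Helper28.U6.R2.extra extraL
  exact List.Forall₂.nil

theorem wSub_l : ∀ l ∈ subL, ∃ s ∈ (∅ : Set (FreeGroup Cfsg.Agent.Helper28.U6.R2.Gen)), Cfsg.Agent.Helper28.WordOf gen s l := by
  intro l hl
  exact absurd hl (by simp [subL])

theorem wSub_r : ∀ s ∈ (∅ : Set (FreeGroup Cfsg.Agent.Helper28.U6.R2.Gen)), ∃ l ∈ subL, Cfsg.Agent.Helper28.WordOf gen s l := by
  intro s hs
  exact absurd hs (Set.notMem_empty s)

/-- The certificate. -/
theorem cert : Cfsg.Agent.Helper28.CoxCert Cfsg.Agent.Helper28.U6.R2.edges Cfsg.Agent.Helper28.U6.R2.extra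
    (∅ : Set (FreeGroup Cfsg.Agent.Helper28.U6.R2.Gen)) gen code D 720 lv T pairs extraL subL where
  hD := rfl
  hnrel := by decide +kernel
  hcode := by intro x; cases x <;> exact ⟨by decide +kernel, rfl⟩
  hcode2 := by decide +kernel
  hnode := by intro x; cases x <;> decide +kernel
  hpairs1 := by decide +kernel
  hpairs2 := by decide +kernel
  hextra1 := Cfsg.Agent.Helper28.forall2_right wE_all
  hextra2 := Cfsg.Agent.Helper28.forall2_left wE_all
  hsub1 := wSub_l
  hsub2 := wSub_r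
  hletE := by decide +kernel
  hletS := by decide +kernel
  hN := Cfsg.Agent.Helper28.pad_ok D (by decide +kernel)
  hchk := (Cfsg.Agent.Helper28.rows_ok D rows_all).1
  hchkJ := (Cfsg.Agent.Helper28.rows_ok D rows_all).2
  hfin := Cfsg.Agent.Helper28.finSem_of D 720 lv T ftp ftc fin_all (by decide +kernel)
  hn := by decide
  hTrel := Cfsg.Agent.Helper28.rel_ok T relL 720 rel_all
  hTsub := by decide +kernel

end Cfsg.Agent.Helper28.U6R2
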